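-- Team project HUPT (S3360), package [FIT] (helper92): an element of order p (a primitive prime
-- divisor) fails to centralize some normal r-subgroup with r ≠ p.
import Cfsg.Agent.Lib.Helper50.HUPT.Defs
import Cfsg.Agent.S0009
import Cfsg.Agent.S0044
import Cfsg.Agent.Lib.Helper84.PCoreBasic

set_option autoImplicit false

universe u v

namespace Cfsg.Agent.Lib.Helper92.HUPT

open Cfsg.Agent.Lib.Helper50.HUPT

/-- `Z(N) = N ⊓ C_G(N)` is normal in `G` when `N` is. -/
lemma zm_normal {G : Type v} [Group G] (N : Subgroup G) (hN : N.Normal) :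
    (N ⊓ Subgroup.centralizer (N : Set G)).Normal := by
  constructor
  intro a ha g
  refine Subgroup.mem_inf.mpr ⟨hN.conj_mem a ha.1 g, ?_⟩
  rw [Subgroup.mem_centralizer_iff]
  intro f hf
  have h1 : g⁻¹ * f * g ∈ N := by simpa using hN.conj_mem f hf g⁻¹
  have h2 := Subgroup.mem_centralizer_iff.mp ha.2 _ h1
  calc f * (g * a * g⁻¹) = g * ((g⁻¹ * f * g) * a) * g⁻¹ := by group
    _ = g * (a * (g⁻¹ * f * g)) * g⁻¹ := by rw [h2]
    _ = g * a * g⁻¹ * f := by group

/-- `Z(N) = N ⊓ C_G(N)` is abelian. -/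
lemma zm_ab {G : Type v} [Group G] (N : Subgroup G) :
    Ab (N ⊓ Subgroup.centralizer (N : Set G)) := by
  intro a ha b hb
  exact Subgroup.mem_centralizer_iff.mp hb.2 a ha.1

lemma pCore_normal92 {G : Type v} [Group G] (r : ℕ) : (Cfsg.pCore r G).Normal := by
  unfold Cfsg.pCore
  exact Subgroup.sSup_normal _ (fun H hH => hH.1)

lemma fitting_normal92 {G : Type v} [Group G] : (Cfsg.fittingSubgroup G).Normal := by
  unfold Cfsg.fittingSubgroup
  exact Subgroup.sSup_normal _ (fun H hH => hH.1)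

/-- Package [FIT]. -/
theorem pkgFit (hNop : PkgNop.{u, v}) : PkgFit.{u, v} := by
  intro q _ V _ _ _ _ G _ _ ρ hsolv hinj hTr hNI n p hn hcard hppd x hx
  classical
  have hp : p.Prime := hppd.1
  have : Fact p.Prime := ⟨hp⟩
  have hnop : ∀ A : Subgroup G, A.Normal → Ab A → ¬ p ∣ Nat.card A :=
    fun A hAn hAb => hNop ρ hinj hTr hNI n p hn hcard hppd A hAn hAb
  -- Step A: `x` does not centralize some `O_r(G)`
  have hA : ∃ r : ℕ, r.Prime ∧ ¬ (∀ a ∈ Cfsg.pCore r G, x * a = a * x) := by
    by_contra hcon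
    push Not at hcon
    have hF : Cfsg.fittingSubgroup G ≤ Subgroup.centralizer ({x} : Set G) := by
      rw [Cfsg.Agent.S0009.result]
      apply iSup_le
      intro r a ha
      rw [Subgroup.mem_centralizer_iff]
      intro y hy
      rw [Set.mem_singleton_iff] at hy
      subst hy
      exact hcon r r.2 a ha
    have hxC : x ∈ Subgroup.centralizer (Cfsg.fittingSubgroup G : Set G) := by
      rw [Subgroup.mem_centralizer_iff]
      intro f hf
      exact (Subgroup.mem_centralizer_iff.mp (hF hf) x rfl).symm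
    have hxF : x ∈ Cfsg.fittingSubgroup G := Cfsg.Agent.S0044.result hxC
    apply hnop _ (zm_normal _ fitting_normal92) (zm_ab _)
    rw [← hx]
    exact Subgroup.orderOf_dvd_natCard _ (show x ∈ Cfsg.fittingSubgroup G ⊓
      Subgroup.centralizer (Cfsg.fittingSubgroup G : Set G) from ⟨hxF, hxC⟩)
  obtain ⟨r, hr, hnc⟩ := hA
  by_cases hrp : r = p
  · exfalso
    subst hrp
    have hRp : IsPGroup r (Cfsg.pCore r G) := Cfsg.Agent.Lib.Helper84.pCore_isPGroup r G
    have hRnt : Nontrivial (Cfsg.pCore r G) := by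
      by_contra hnt
      rw [not_nontrivial_iff_subsingleton] at hnt
      apply hnc
      intro a ha
      have h1 : (⟨a, ha⟩ : Cfsg.pCore r G) = 1 := Subsingleton.elim _ _
      have ha1 : a = 1 := congrArg Subtype.val h1
      rw [ha1, mul_one, one_mul]
    have hZnt : Nontrivial (Subgroup.center (Cfsg.pCore r G)) := hRp.center_nontrivial
    obtain ⟨z, hz⟩ := exists_ne (1 : Subgroup.center (Cfsg.pCore r G))
    have hzA : ((z : Cfsg.pCore r G) : G) ∈ Cfsg.pCore r G ⊓
        Subgroup.centralizer (Cfsg.pCore r G : Set G) := by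
      refine Subgroup.mem_inf.mpr ⟨(z : Cfsg.pCore r G).2, ?_⟩
      rw [Subgroup.mem_centralizer_iff]
      intro b hb
      have h1 := Subgroup.mem_center_iff.mp z.2 ⟨b, hb⟩
      exact congrArg Subtype.val h1
    have hAp : IsPGroup r ↥(Cfsg.pCore r G ⊓ Subgroup.centralizer (Cfsg.pCore r G : Set G)) :=
      hRp.to_le inf_le_left
    obtain ⟨k, hk⟩ := IsPGroup.iff_card.mp hAp
    have hk0 : k ≠ 0 := by
      rintro rfl
      rw [pow_zero] at hk
      have hbot := Subgroup.eq_bot_of_card_eq _ hk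
      rw [hbot, Subgroup.mem_bot] at hzA
      apply hz
      apply Subtype.ext
      apply Subtype.ext
      exact hzA
    apply hnop _ (zm_normal _ (pCore_normal92 r)) (zm_ab _)
    rw [hk]
    exact dvd_pow_self r hk0
  · exact ⟨r, hr, hrp, Cfsg.pCore r G, pCore_normal92 r,
      Cfsg.Agent.Lib.Helper84.pCore_isPGroup r G, hnc⟩

end Cfsg.Agent.Lib.Helper92.HUPT
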